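import Cfsg.Agent.J2Type.Enum.StepA
import Cfsg.Agent.J2Type.Enum.StepB
import Cfsg.Agent.J2Type.Enum.StepC
import Cfsg.Agent.J2Type.Enum.Words
import Cfsg.Agent.CosetEnum.Glue

/-!
Six elements satisfying the relators of the Hall–Janko presentation generate at most 604800 elements, and
the centraliser part is faithfully represented on 32 points.
-/

set_option autoImplicit false

namespace Cfsg.Agent.J2Type.Enum

open Cfsg.Agent.CosetCert Cfsg.Agent.CosetEnum

/-- the inverse letter -/
def invl (l : ℕ) : ℕ := [0, 2, 1, 4, 3, 6, 5, 8, 7, 10, 9, 12, 11].getD l 0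

/-- the inverse word -/
def invW (w : List ℕ) : List ℕ := w.reverse.map invl

/-- the linking relator -/
def linkW : List ℕ := kW ++ qW ++ invW kW ++ invW uW

variable {G H : Type*} [Group G] [Group H]

/-- the letters of six elements -/
def lett (e : Fin 6 → G) (l : ℕ) : G :=
  [1, e 0, (e 0)⁻¹, e 1, (e 1)⁻¹, e 2, (e 2)⁻¹, e 3, (e 3)⁻¹, e 4, (e 4)⁻¹, e 5, (e 5)⁻¹].getD l 1

/-- the value of a word -/
def ev (g : ℕ → G) (w : List ℕ) : G := (w.map g).prod

@[simp] theorem ev_nil (g : ℕ → G) : ev g [] = 1 := rfl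

theorem ev_cons (g : ℕ → G) (l : ℕ) (w : List ℕ) : ev g (l :: w) = g l * ev g w := by
  simp [ev]

theorem ev_append (g : ℕ → G) (v w : List ℕ) : ev g (v ++ w) = ev g v * ev g w := by
  simp [ev]

theorem ev_congr {g g' : ℕ → G} {w : List ℕ} (h : ∀ l ∈ w, g l = g' l) : ev g w = ev g' w := by
  rw [ev, ev, List.map_congr_left h]

theorem map_ev (φ : G →* H) (g : ℕ → G) (w : List ℕ) : φ (ev g w) = ev (fun l => φ (g l)) w := by
  simp [ev, map_list_prod, Function.comp_def]

theorem pval_eq_ev (g : ℕ → G) (u : List ℕ) : pval g u = ev g u.reverse := pval_eq_prod g u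

theorem lett_invl (e : Fin 6 → G) (l : ℕ) : lett e (invl l) = (lett e l)⁻¹ := by
  by_cases h : l ≤ 12
  · interval_cases l <;> simp [lett, invl]
  · simp [lett, invl, List.getD_eq_default, show 13 ≤ l by omega]

theorem map_lett (φ : G →* H) (e : Fin 6 → G) (l : ℕ) : φ (lett e l) = lett (fun i => φ (e i)) l := by
  by_cases h : l ≤ 12
  · interval_cases l <;> simp [lett]
  · simp [lett, List.getD_eq_default, show 13 ≤ l by omega]

theorem map_ev_lett (φ : G →* H) (e : Fin 6 → G) (w : List ℕ) :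
    φ (ev (lett e) w) = ev (lett fun i => φ (e i)) w := by
  rw [map_ev]
  exact ev_congr fun l _ => map_lett φ e l

theorem ev_invW (e : Fin 6 → G) (w : List ℕ) : ev (lett e) (invW w) = (ev (lett e) w)⁻¹ := by
  induction w with
  | nil => simp [invW]
  | cons l w ih =>
    have he : invW (l :: w) = invW w ++ [invl l] := by simp [invW]
    rw [he, ev_append, ih, ev_cons (lett e) l w, mul_inv_rev]
    simp [ev, lett_invl]

/-- the relators of the centraliser of `z` -/
def RelsB (e : Fin 6 → G) : Prop := ∀ w ∈ relB, ev (lett e) w = 1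

/-- all the relators -/
def Rels (e : Fin 6 → G) : Prop := (∀ w ∈ relC, ev (lett e) w = 1) ∧ ev (lett e) linkW = 1

theorem ev_linkW (e : Fin 6 → G) : ev (lett e) linkW = 1 ↔
    ev (lett e) kW * ev (lett e) qW * (ev (lett e) kW)⁻¹ = ev (lett e) uW := by
  rw [linkW, ev_append, ev_append, ev_append, ev_invW, ev_invW, mul_inv_eq_one]

theorem relsB_of {e : Fin 6 → G} (h : ∀ w ∈ relC, ev (lett e) w = 1) : RelsB e := by
  have hm : ∀ w, w ∈ relC → ev (lett e) w = 1 := h
  have hA : ∀ w, w ∈ relC → w ∈ relB → ev (lett e) w = 1 := fun w h1 _ => hm w h1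
  have hz : ev (lett e) zW = lett e 9 := by
    have h1 := hm (zW ++ [9]) (by decide)
    rw [ev_append] at h1
    have h2 := hm [9, 9] (by decide)
    simp only [ev, List.map_cons, List.map_nil, List.prod_cons, List.prod_nil, mul_one] at h2
    rw [eq_inv_of_mul_eq_one_left h1]
    simp [ev, inv_eq_iff_mul_eq_one, h2]
  have hzz : ev (lett e) (zW ++ zW) = 1 := by
    rw [ev_append, hz]
    have h2 := hm [9, 9] (by decide)
    simpa [ev] using h2
  have hone : ∀ x, [x, x] ∈ relC → (lett e x)⁻¹ = lett e x := fun x hx => by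
    have a := hm _ hx
    simp only [ev, List.map_cons, List.map_nil, List.prod_cons, List.prod_nil, mul_one] at a
    exact inv_eq_of_mul_eq_one_right a
  have hinv2 : ∀ a b, [a, a] ∈ relC → [b, b] ∈ relC → [a, b, a, b] ∈ relC →
      lett e a * lett e b = lett e b * lett e a := fun a b ha hb hab => by
    have c := hm _ hab
    simp only [ev, List.map_cons, List.map_nil, List.prod_cons, List.prod_nil, mul_one] at c
    rw [← mul_assoc] at c
    rw [eq_inv_of_mul_eq_one_left c, mul_inv_rev, hone a ha, hone b hb]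
  have h3 : lett e 3 * lett e 9 = lett e 9 * lett e 3 := by
    have a := hm [3, 9, 4, 9] (by decide)
    simp only [ev, List.map_cons, List.map_nil, List.prod_cons, List.prod_nil, mul_one] at a
    rw [← mul_assoc] at a
    rw [eq_inv_of_mul_eq_one_left a, mul_inv_rev, hone 9 (by decide),
      show lett e 4 = (lett e 3)⁻¹ from lett_invl e 3, inv_inv]
  have hcom : ∀ x, lett e 9 * lett e x = lett e x * lett e 9 →
      ev (lett e) (zW ++ [x] ++ invW zW ++ [invl x]) = 1 := by
    intro x hx
    rw [ev_append, ev_append, ev_append, ev_invW, hz]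
    simp only [ev, List.map_cons, List.map_nil, List.prod_cons, List.prod_nil, mul_one, lett_invl]
    rw [hx, mul_inv_cancel_right, mul_inv_cancel]
  intro w hw
  have hw' : w ∈ relC ∨ w = zW ++ zW ∨ w = zW ++ [1] ++ invW zW ++ [invl 1] ∨
      w = zW ++ [3] ++ invW zW ++ [invl 3] ∨ w = zW ++ [5] ++ invW zW ++ [invl 5] ∨
      w = zW ++ [7] ++ invW zW ++ [invl 7] := by
    revert w
    decide
  rcases hw' with h1 | rfl | rfl | rfl | rfl | rfl
  · exact hm w h1
  · exact hzz
  · exact hcom 1 (hinv2 1 9 (by decide) (by decide) (by decide)).symm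
  · exact hcom 3 h3.symm
  · exact hcom 5 (hinv2 5 9 (by decide) (by decide) (by decide)).symm
  · exact hcom 7 (hinv2 9 7 (by decide) (by decide) (by decide))

theorem Rels.relsB {e : Fin 6 → G} (h : Rels e) : RelsB e := relsB_of h.1

/-- six letters truncated after `n` -/
def lettN (e : Fin 6 → G) (n l : ℕ) : G := if l ≤ n then lett e l else 1

theorem lettN_zero (e : Fin 6 → G) (n : ℕ) : lettN e n 0 = 1 := by simp [lettN, lett]

theorem lettN_inv (e : Fin 6 → G) (n : ℕ) (L : List ℕ) (hn : n ≤ 12)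
    (hL : L.length = n + 1) (hi : ∀ l ≤ n, L.getD l 0 = invl l ∧ invl l ≤ n) (l : ℕ) :
    lettN e n (L.getD l 0) = (lettN e n l)⁻¹ := by
  by_cases h : l ≤ n
  · rw [(hi l h).1]
    simp [lettN, h, (hi l h).2, lett_invl]
  · rw [List.getD_eq_default _ _ (by omega), lettN_zero]
    simp [lettN, h]

theorem closure_lettN (e : Fin 6 → G) (n : ℕ) (L : List ℕ) (h : ∀ l ∈ L, l ≤ n) :
    Subgroup.closure (lettN e n '' {l | l ∈ L}) = Subgroup.closure (lett e '' {l | l ∈ L}) := by
  rw [Set.image_congr (g := lett e) fun l hl => by simp [lettN, h l hl]]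

theorem lettN_rel (e : Fin 6 → G) (n : ℕ) (u : List ℕ) (hu : ∀ l ∈ u, l ≤ n) {R : List (List ℕ)}
    (hR : ∀ w ∈ R, ev (lett e) w = 1) (hu' : u.reverse ∈ R) : pval (lettN e n) u = 1 := by
  rw [pval_eq_ev, ev_congr (g' := lett e) fun l hl => by simp [lettN, hu l (List.mem_reverse.1 hl)]]
  exact hR _ hu'

/-- The centraliser part has at most 1920 elements. -/
theorem bound_relB {e : Fin 6 → G} (h : RelsB e) :
    Finite (Subgroup.closure (lett e '' {l | l ∈ stepB.letters})) ∧
      Nat.card (Subgroup.closure (lett e '' {l | l ∈ stepB.letters})) ≤ 32 * 60 := by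
  have ha := bound_base stepA_valid (lettN e 6) (lettN_zero e 6)
    (fun l => lettN_inv e 6 stepA.invl (by omega) rfl (by decide) l)
    (fun u hu => lettN_rel e 6 u ((by decide : ∀ u ∈ stepA.words, ∀ l ∈ u, l ≤ 6) u hu) h
      ((by decide : ∀ u ∈ stepA.words, u.reverse ∈ relB) u hu)) rfl
  rw [closure_lettN e 6 _ (by decide), ← closure_lettN e 8 stepA.letters (by decide)] at ha
  have hb := bound_step stepB_valid (lettN e 8) (lettN_zero e 8)
    (fun l => lettN_inv e 8 stepB.invl (by omega) rfl (by decide) l)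
    (fun u hu => lettN_rel e 8 u ((by decide : ∀ u ∈ stepB.words, ∀ l ∈ u, l ≤ 8) u hu) h
      ((by decide : ∀ u ∈ stepB.words, u.reverse ∈ relB) u hu))
    stepA.letters (by decide) ha
  rw [closure_lettN e 8 _ (by decide)] at hb
  exact hb

/-- The whole group has at most 604800 elements. -/
theorem bound_rels {e : Fin 6 → G} (h : Rels e) :
    Finite (Subgroup.closure (lett e '' {l | l ∈ stepC.letters})) ∧
      Nat.card (Subgroup.closure (lett e '' {l | l ∈ stepC.letters})) ≤ 604800 := by
  have hb := bound_relB h.relsB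
  rw [← closure_lettN e 12 stepB.letters (by decide)] at hb
  have hall : ∀ w ∈ linkW :: relC, ev (lett e) w = 1 := List.forall_mem_cons.2 ⟨h.2, h.1⟩
  have hc := bound_step stepC_valid (lettN e 12) (lettN_zero e 12)
    (fun l => lettN_inv e 12 stepC.invl le_rfl rfl (by decide) l)
    (fun u hu => lettN_rel e 12 u ((by decide : ∀ u ∈ stepC.words, ∀ l ∈ u, l ≤ 12) u hu) hall
      ((by decide : ∀ u ∈ stepC.words, u.reverse ∈ linkW :: relC) u hu))
    stepB.letters (by decide) hb
  rw [closure_lettN e 12 _ (by decide)] at hc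
  exact hc

theorem ev_mem (e : Fin 6 → G) {L : List ℕ} {w : List ℕ} (h : ∀ l ∈ w, l ∈ L) :
    ev (lett e) w ∈ Subgroup.closure (lett e '' {l | l ∈ L}) :=
  Subgroup.list_prod_mem _ fun g hg => by
    obtain ⟨l, hl, rfl⟩ := List.mem_map.1 hg
    exact Subgroup.subset_closure ⟨l, h l hl, rfl⟩

/-- a letter on 32 points -/
def pt32 (l : ℕ) (i : Fin 32) : Fin 32 := Fin.ofNat 32 ((tab32.getD l []).getD i.val 0)

/-- a generator on 32 points -/
def sigma32 : Fin 6 → Equiv.Perm (Fin 32)
  | 0 => ⟨pt32 1, pt32 2, by decide +kernel, by decide +kernel⟩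
  | 1 => ⟨pt32 3, pt32 4, by decide +kernel, by decide +kernel⟩
  | 2 => ⟨pt32 5, pt32 6, by decide +kernel, by decide +kernel⟩
  | 3 => ⟨pt32 7, pt32 8, by decide +kernel, by decide +kernel⟩
  | _ => 1

/-- a word on 32 points -/
def run32 (w : List ℕ) (i : Fin 32) : Fin 32 := w.foldr pt32 i

theorem ev_sigma32 {w : List ℕ} (h : ∀ l ∈ w, l ∈ stepB.letters) (i : Fin 32) :
    ev (lett sigma32) w i = run32 w i := by
  induction w with
  | nil => rfl
  | cons l w ih =>
    rw [ev_cons, Equiv.Perm.mul_apply, ih fun m hm => h m (List.mem_cons_of_mem _ hm)]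
    have hl : l ∈ [1, 2, 3, 4, 5, 6, 7, 8] := h l List.mem_cons_self
    simp only [List.mem_cons, List.not_mem_nil, or_false] at hl
    rcases hl with rfl | rfl | rfl | rfl | rfl | rfl | rfl | rfl <;> rfl

theorem relsB_sigma32 : RelsB sigma32 := by
  intro w hw
  refine Equiv.ext fun i => ?_
  rw [ev_sigma32 ((by decide : ∀ w ∈ relB, ∀ l ∈ w, l ∈ stepB.letters) w hw)]
  exact (by decide +kernel : ∀ w ∈ relB, ∀ i, run32 w i = i) w hw i

/-- Equal words in a group where the centraliser part has full order act equally on 32 points. -/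
theorem run32_eq {e : Fin 6 → G} (h : RelsB e)
    (hc : 1920 ≤ Nat.card (Subgroup.closure (lett e '' {l | l ∈ stepB.letters})))
    {v w : List ℕ} (hv : ∀ l ∈ v, l ∈ stepB.letters) (hw : ∀ l ∈ w, l ∈ stepB.letters)
    (hvw : ev (lett e) v = ev (lett e) w) (i : Fin 32) : run32 v i = run32 w i := by
  let q : Fin 6 → G × Equiv.Perm (Fin 32) := fun j => (e j, sigma32 j)
  have hq : RelsB q := fun u hu => by
    refine Prod.ext ?_ ?_
    · exact (map_ev_lett (MonoidHom.fst _ _) q u).trans (h u hu)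
    · exact (map_ev_lett (MonoidHom.snd _ _) q u).trans (relsB_sigma32 u hu)
  obtain ⟨hfin, hcard⟩ := bound_relB hq
  set P := Subgroup.closure (lett q '' {l | l ∈ stepB.letters})
  have himg : P.map (MonoidHom.fst _ _) = Subgroup.closure (lett e '' {l | l ∈ stepB.letters}) := by
    rw [MonoidHom.map_closure, Set.image_image]
    simp only [map_lett]
    rfl
  let φ : P →* Subgroup.closure (lett e '' {l | l ∈ stepB.letters}) :=
    ((MonoidHom.fst G (Equiv.Perm (Fin 32))).comp P.subtype).codRestrict _ fun x => by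
      rw [← himg]
      exact ⟨x.1, x.2, rfl⟩
  have hsurj : Function.Surjective φ := by
    rintro ⟨y, hy⟩
    obtain ⟨x, hx, rfl⟩ := himg.symm ▸ hy
    exact ⟨⟨x, hx⟩, rfl⟩
  have := Finite.of_surjective φ hsurj
  have hle := Nat.card_le_card_of_surjective _ hsurj
  have hinj : Function.Injective φ :=
    ((Nat.bijective_iff_surjective_and_card φ).2 ⟨hsurj, le_antisymm (hcard.trans hc) hle⟩).1
  have heq : (⟨ev (lett q) v, ev_mem q hv⟩ : P) = ⟨ev (lett q) w, ev_mem q hw⟩ := hinj <| Subtype.ext <| by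
    show (ev (lett q) v).1 = (ev (lett q) w).1
    exact (map_ev_lett (MonoidHom.fst _ _) q v).trans (hvw.trans (map_ev_lett (MonoidHom.fst _ _) q w).symm)
  have h2 := congrArg (fun x : P => (x.1.2 : Equiv.Perm (Fin 32)) i) heq
  have e1 : (ev (lett q) v).2 = ev (lett sigma32) v := map_ev_lett (MonoidHom.snd _ _) q v
  have e2 : (ev (lett q) w).2 = ev (lett sigma32) w := map_ev_lett (MonoidHom.snd _ _) q w
  simp only [e1, e2] at h2
  rw [← ev_sigma32 hv, ← ev_sigma32 hw, h2]

end Cfsg.Agent.J2Type.Enum
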