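import Cfsg.Agent.J2Type.Enum.Bound
import Cfsg.Agent.Janko2.Simple

/-!
A group of order 604800 with six elements satisfying the relators is the model of the Hall–Janko group.
-/

set_option autoImplicit false

namespace Cfsg.Agent.J2Type.Enum

open Cfsg.Agent.Janko2 (K el el_mem elW elW_mem elW_apply elW_append applyW sixPts eq_of_six)

/-- a letter as a word in the four reflections -/
def modLett (l : ℕ) : List ℕ :=
  if l % 2 = 1 then modelW.getD (l / 2) [] else (modelW.getD (l / 2 - 1) []).reverse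

/-- a word in the letters as a word in the reflections -/
def modWord (w : List ℕ) : List ℕ := w.flatMap modLett

/-- the six generators in the model -/
noncomputable def em (i : Fin 6) : ↥K := ⟨elW (modelW.getD i []), elW_mem _⟩

theorem el_sq_table : ∀ (k : Fin 4) (x : Fin 315), applyW [k.val, k.val] x.val = x.val := by
  decide +kernel

theorem el_mul_self {k : ℕ} (hk : k < 4) : el k * el k = 1 := by
  refine Equiv.ext fun x => Fin.ext ?_
  have h := elW_apply (w := [k, k]) (by simp; omega) x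
  have e : elW [k, k] = el k * el k := by simp [elW]
  rw [e, el_sq_table ⟨k, hk⟩ x] at h
  exact h

theorem elW_reverse {w : List ℕ} (h : ∀ k ∈ w, k < 4) : elW w.reverse = (elW w)⁻¹ := by
  induction w with
  | nil => simp [elW]
  | cons k w ih =>
    rw [List.forall_mem_cons] at h
    rw [List.reverse_cons, elW_append, ih h.2]
    have e : elW (k :: w) = el k * elW w := by simp [elW]
    have e1 : elW [k] = (el k)⁻¹ := by
      simp [elW, inv_eq_of_mul_eq_one_right (el_mul_self h.1)]
    rw [e, e1, mul_inv_rev]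

theorem lett_em {l : ℕ} (h1 : 1 ≤ l) (h2 : l ≤ 12) : ((lett em l : ↥K) : Equiv.Perm (Fin 315)) = elW (modLett l) := by
  interval_cases l <;>
    first
    | rfl
    | (refine (elW_reverse ?_).symm.trans ?_ <;> first | decide | rfl)

theorem ev_em {w : List ℕ} (h : ∀ l ∈ w, 1 ≤ l ∧ l ≤ 12) :
    ((ev (lett em) w : ↥K) : Equiv.Perm (Fin 315)) = elW (modWord w) := by
  induction w with
  | nil => rfl
  | cons l w ih =>
    rw [List.forall_mem_cons] at h
    rw [ev_cons, Subgroup.coe_mul, lett_em h.1.1 h.1.2, ih h.2, ← elW_append]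
    rfl

theorem em_table : ∀ w ∈ linkW :: relC, (∀ l ∈ w, 1 ≤ l ∧ l ≤ 12) ∧ (∀ k ∈ modWord w, k < 32) ∧
    ∀ x ∈ sixPts, applyW (modWord w) x = x := by
  decide +kernel

theorem rels_em : Rels em := by
  have h : ∀ w ∈ linkW :: relC, ev (lett em) w = 1 := by
    intro w hw
    obtain ⟨h1, h2, h3⟩ := em_table w hw
    refine Subtype.ext ?_
    rw [ev_em h1, Subgroup.coe_one]
    refine eq_of_six (elW_mem _) (one_mem _) fun x hx => Fin.ext ?_
    rw [elW_apply h2, h3 x.val hx]
    rfl
  exact ⟨fun w hw => h w (List.mem_cons_of_mem _ hw), h _ List.mem_cons_self⟩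

theorem back_table : ∀ k : Fin 4, (∀ l ∈ backW.getD k.val [], 1 ≤ l ∧ l ≤ 12) ∧
    (∀ j ∈ modWord (backW.getD k.val []), j < 32) ∧
    ∀ x ∈ sixPts, applyW (modWord (backW.getD k.val [])) x = applyW [k.val] x := by
  decide +kernel

theorem letters_mem {l : ℕ} (h : 1 ≤ l ∧ l ≤ 12) : l ∈ stepC.letters := by
  obtain ⟨h1, h2⟩ := h
  interval_cases l <;> decide

theorem closure_em : Subgroup.closure (lett em '' {l | l ∈ stepC.letters}) = ⊤ := by
  rw [eq_top_iff]
  rintro ⟨g, hg⟩ -
  suffices h : K ≤ (Subgroup.closure (lett em '' {l | l ∈ stepC.letters})).map K.subtype by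
    obtain ⟨x, hx, e⟩ := h hg
    have : x = ⟨g, hg⟩ := Subtype.ext e
    rwa [← this]
  refine (Subgroup.closure_le _).2 ?_
  rintro _ ⟨k, rfl⟩
  obtain ⟨h1, h2, h3⟩ := back_table k
  have hk : elW [k.val] = Cfsg.Agent.Janko2.rho (Cfsg.Agent.Janko2.genG k) := Equiv.ext fun x =>
    Fin.ext (by rw [elW_apply (by simp; omega), Cfsg.Agent.Janko2.genG_table]; rfl)
  refine ⟨ev (lett em) (backW.getD k.val []), ev_mem em fun l hl => letters_mem (h1 l hl), ?_⟩
  show ((ev (lett em) (backW.getD k.val []) : ↥K) : Equiv.Perm (Fin 315)) = _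
  rw [ev_em h1]
  show _ = Cfsg.Agent.Janko2.rho (Cfsg.Agent.Janko2.genG k)
  rw [← hk]
  refine eq_of_six (elW_mem _) (elW_mem _) fun x hx => Fin.ext ?_
  rw [elW_apply h2, elW_apply (by simp; omega), h3 x.val hx]

/-- **Identification.** -/
theorem nonempty_iso_K {G : Type*} [Group G] {e : Fin 6 → G} (h : Rels e)
    (he : e 3 ≠ 1) (hcard : Nat.card G = 604800) : Nonempty (G ≃* ↥K) := by
  let q : Fin 6 → G × ↥K := fun j => (e j, em j)
  have hqc : ∀ w, ev (lett e) w = 1 → ev (lett em) w = 1 → ev (lett q) w = 1 := fun w h1 h2 =>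
    Prod.ext ((map_ev_lett (MonoidHom.fst _ _) q w).trans h1)
      ((map_ev_lett (MonoidHom.snd _ _) q w).trans h2)
  have hq : Rels q :=
    ⟨fun w hw => hqc w (h.1 w hw) (rels_em.1 w hw), hqc _ h.2 rels_em.2⟩
  obtain ⟨hfin, hle⟩ := bound_rels hq
  set P := Subgroup.closure (lett q '' {l | l ∈ stepC.letters})
  let ψ : P →* ↥K := (MonoidHom.snd G ↥K).comp P.subtype
  let χ : P →* G := (MonoidHom.fst G ↥K).comp P.subtype
  have hsurj : Function.Surjective ψ := by
    have himg : P.map (MonoidHom.snd G ↥K) = ⊤ := by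
      rw [MonoidHom.map_closure, Set.image_image]
      simp only [map_lett]
      exact closure_em
    intro y
    obtain ⟨x, hx, rfl⟩ := (himg ▸ Subgroup.mem_top y : y ∈ P.map (MonoidHom.snd G ↥K))
    exact ⟨⟨x, hx⟩, rfl⟩
  have hK := Cfsg.Agent.Janko2.card_K
  have hle' := Nat.card_le_card_of_surjective _ hsurj
  have hbij : Function.Bijective ψ :=
    (Nat.bijective_iff_surjective_and_card ψ).2 ⟨hsurj, le_antisymm (hle.trans hK.ge) hle'⟩
  have hsimp : IsSimpleGroup P :=
    (MulEquiv.isSimpleGroup_congr (MulEquiv.ofBijective ψ hbij)).2 Cfsg.Agent.Janko2.simple_K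
  have hker : χ.ker = ⊥ := by
    refine ((χ.normal_ker).eq_bot_or_eq_top).resolve_right fun htop => he ?_
    have hm : (⟨lett q 7, Subgroup.subset_closure ⟨7, by decide, rfl⟩⟩ : P) ∈ χ.ker := htop ▸ Subgroup.mem_top _
    exact hm
  have hχ : Function.Bijective χ := by
    have : Finite G := Nat.finite_of_card_ne_zero (by omega)
    refine (Nat.bijective_iff_injective_and_card χ).2 ⟨(MonoidHom.ker_eq_bot_iff χ).1 hker, ?_⟩
    rw [hcard, ← hK]
    exact Nat.card_congr (Equiv.ofBijective ψ hbij)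
  exact ⟨(MulEquiv.ofBijective χ hχ).symm.trans (MulEquiv.ofBijective ψ hbij)⟩

end Cfsg.Agent.J2Type.Enum
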